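import Cfsg.Agent.H10.O7T.LData

set_option autoImplicit false
set_option linter.all false

namespace Cfsg.Agent.H10.O7T

open Cfsg.Agent.H35 Cfsg.Spor Cfsg.Agent.H10

theorem ol_lvl1 : allR (fun p => lvlOK t1687_pd ol_lab 0 ol_ws1 976 p) 3510 12 0 = true := by decide +kernel
theorem ol_fix1 : fixOK t1687_pd ol_ws1 [] = true := by decide +kernel
theorem ol_cnt1 : cntR (fun p => Nat.ble 1 (fld 16 (ol_lab p) 0)) 3510 12 0 = 3510 := by decide +kernel
theorem ol_lvl2 : allR (fun p => lvlOK t1687_pd ol_lab 2 ol_ws2 821 p) 3510 12 0 = true := by decide +kernel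
theorem ol_fix2 : fixOK t1687_pd ol_ws2 [976] = true := by decide +kernel
theorem ol_cnt2 : cntR (fun p => Nat.ble 1 (fld 16 (ol_lab p) 2)) 3510 12 0 = 2816 := by decide +kernel
theorem ol_lvl3 : allR (fun p => lvlOK t1687_pd ol_lab 4 ol_ws3 1518 p) 3510 12 0 = true := by decide +kernel
theorem ol_fix3 : fixOK t1687_pd ol_ws3 [976, 821] = true := by decide +kernel
theorem ol_cnt3 : cntR (fun p => Nat.ble 1 (fld 16 (ol_lab p) 4)) 3510 12 0 = 567 := by decide +kernel
theorem ol_lvl4 : allR (fun p => lvlOK t1687_pd ol_lab 6 ol_ws4 974 p) 3510 12 0 = true := by decide +kernel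
theorem ol_fix4 : fixOK t1687_pd ol_ws4 [976, 821, 1518] = true := by decide +kernel
theorem ol_cnt4 : cntR (fun p => Nat.ble 1 (fld 16 (ol_lab p) 6)) 3510 12 0 = 320 := by decide +kernel
theorem ol_lvl5 : allR (fun p => lvlOK t1687_pd ol_lab 8 ol_ws5 407 p) 3510 12 0 = true := by decide +kernel
theorem ol_fix5 : fixOK t1687_pd ol_ws5 [976, 821, 1518, 974] = true := by decide +kernel
theorem ol_cnt5 : cntR (fun p => Nat.ble 1 (fld 16 (ol_lab p) 8)) 3510 12 0 = 9 := by decide +kernel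
theorem ol_lvl6 : allR (fun p => lvlOK t1687_pd ol_lab 10 ol_ws6 666 p) 3510 12 0 = true := by decide +kernel
theorem ol_fix6 : fixOK t1687_pd ol_ws6 [976, 821, 1518, 974, 407] = true := by decide +kernel
theorem ol_cnt6 : cntR (fun p => Nat.ble 1 (fld 16 (ol_lab p) 10)) 3510 12 0 = 4 := by decide +kernel

end Cfsg.Agent.H10.O7T
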