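import Cfsg.Agent.H10.O7T.Vec
import Cfsg.Agent.H10.U6T.Gen
import Cfsg.Agent.H49.Spinor
import Cfsg.Agent.H7.OmegaCenter
import Cfsg.Agent.S0292

/-!
# The action of the orthogonal group of dimension 7 over the field with three elements on the 351
minus points (helper10)
-/

set_option autoImplicit false

namespace Cfsg.Agent.H10.O7T

open Cfsg Cfsg.Agent.H35 Matrix

theorem eta7 (u : I7 → ZMod 3) : u = mk7 (u (.inl ())) (u (.inr (.inl 0))) (u (.inr (.inl 1)))
    (u (.inr (.inl 2))) (u (.inr (.inr 0))) (u (.inr (.inr 1))) (u (.inr (.inr 2))) := by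
  funext j
  rcases j with ⟨⟩ | j | j
  · rfl
  · fin_cases j <;> rfl
  · fin_cases j <;> rfl

theorem dec_code (u : I7 → ZMod 3) : dec (code u) = u := by
  have h := v_dec (u (.inl ())) (u (.inr (.inl 0))) (u (.inr (.inl 1)))
    (u (.inr (.inl 2))) (u (.inr (.inr 0))) (u (.inr (.inr 1))) (u (.inr (.inr 2)))
  rw [← eta7 u] at h
  obtain ⟨h0, h1, h2, h3, h4, h5, h6⟩ := h
  funext j
  rcases j with ⟨⟩ | j | j
  · exact h0
  · fin_cases j
    · exact h1
    · exact h2
    · exact h3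
  · fin_cases j
    · exact h4
    · exact h5
    · exact h6

theorem idx_nrm (u : I7 → ZMod 3) (hq : qq u = 2) :
    idxN u < 351 ∧ (vec (idxN u) = u ∨ vec (idxN u) = ng u) := by
  have h := v_nrm (u (.inl ())) (u (.inr (.inl 0))) (u (.inr (.inl 1)))
    (u (.inr (.inl 2))) (u (.inr (.inr 0))) (u (.inr (.inr 1))) (u (.inr (.inr 2)))
  rw [← eta7 u] at h
  obtain ⟨h1, h2⟩ := h hq
  refine ⟨h1, ?_⟩
  rcases h2 with h2 | h2
  · left
    show dec (vecN (idxN u)) = u
    rw [h2, dec_code]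
  · right
    show dec (vecN (idxN u)) = ng u
    rw [h2, dec_code]

theorem idx_ng (u : I7 → ZMod 3) : idxN (ng u) = idxN u := by
  have h := v_neg (u (.inl ())) (u (.inr (.inl 0))) (u (.inr (.inl 1)))
    (u (.inr (.inl 2))) (u (.inr (.inr 0))) (u (.inr (.inr 1))) (u (.inr (.inr 2)))
  rw [← eta7 u] at h
  exact h

theorem vec_idx (i : ℕ) (hi : i < 351) : idxN (vec i) = i :=
  Nat.eq_of_beq_eq_true (allR_all _ 351 9 (by norm_num) v_idx i hi)

theorem vec_q (i : ℕ) (hi : i < 351) : qq (vec i) = 2 :=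
  of_decide_eq_true (allR_all _ 351 9 (by norm_num) v_q i hi)

/-- the quadratic form -/
noncomputable abbrev Q7 : QuadraticForm (ZMod 3) (I7 → ZMod 3) := H7.qOdd 3 (ZMod 3)

/-- the isometry group -/
abbrev G7 : Type := ↥(Cfsg.isometryGroup (ZMod 3) (⇑Q7))

/-- the matrix of an isometry -/
abbrev mat (g : G7) : Matrix I7 I7 (ZMod 3) :=
  ((g : Matrix.GeneralLinearGroup I7 (ZMod 3)) : Matrix I7 I7 (ZMod 3))

theorem Q7_eq (u : I7 → ZMod 3) : Q7 u = qq u := by
  show (⇑(H7.qOdd 3 (ZMod 3))) u = qq u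
  rw [H7.qOdd_coe]
  simp only [quadFormOdd, Fin.sum_univ_three, qq, pow_two]
  ring

theorem polar_eq (u v : I7 → ZMod 3) : QuadraticMap.polar (⇑Q7) u v = bb u v := by
  show QuadraticMap.polar (⇑(H7.qOdd 3 (ZMod 3))) u v = bb u v
  rw [H7.polar_qOdd]
  simp only [Fin.sum_univ_three, bb]
  ring

theorem mat_mul (g h : G7) : mat (g * h) = mat g * mat h := rfl

theorem mat_one : mat (1 : G7) = 1 := rfl

theorem mat_pres (g : G7) (u : I7 → ZMod 3) : qq (mat g *ᵥ u) = qq u := by
  rw [← Q7_eq, ← Q7_eq]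
  exact H49.isometry_apply g u

theorem ng_eq (u : I7 → ZMod 3) : ng u = -u := rfl

/-- the action on the indices of the minus points -/
def oact (g : G7) (i : Fin 351) : Fin 351 :=
  ⟨idxN (mat g *ᵥ vec i.val) % 351, Nat.mod_lt _ (by norm_num)⟩

theorem oact_one (i : Fin 351) : oact 1 i = i := by
  apply Fin.ext
  show idxN (mat 1 *ᵥ vec i.val) % 351 = i.val
  rw [mat_one, Matrix.one_mulVec, vec_idx _ i.isLt, Nat.mod_eq_of_lt i.isLt]

theorem oact_mul (g h : G7) (i : Fin 351) : oact (g * h) i = oact g (oact h i) := by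
  apply Fin.ext
  show idxN (mat (g * h) *ᵥ vec i.val) % 351 =
    idxN (mat g *ᵥ vec (idxN (mat h *ᵥ vec i.val) % 351)) % 351
  have hq : qq (mat h *ᵥ vec i.val) = 2 := by
    rw [mat_pres]
    exact vec_q _ i.isLt
  obtain ⟨hlt, hv⟩ := idx_nrm _ hq
  rw [Nat.mod_eq_of_lt hlt, mat_mul, ← Matrix.mulVec_mulVec]
  rcases hv with hv | hv
  · rw [hv]
  · rw [hv, ng_eq, Matrix.mulVec_neg, ← ng_eq, idx_ng]

/-- the permutation representation of the isometry group on the minus points -/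
noncomputable def orep : G7 →* Equiv.Perm (Fin 351) := U6T.homOfAct oact oact_one oact_mul

theorem orep_apply (g : G7) (i : Fin 351) : orep g i = oact g i := rfl

/-- minus the reflection of a vector -/
noncomputable def Mx (v : I7 → ZMod 3) : G7 := H49.negG Q7 * H49.reflG Q7 v

theorem inv_two : ((2 : ZMod 3))⁻¹ = 2 :=
  inv_eq_of_mul_eq_one_right (by decide : (2 : ZMod 3) * 2 = 1)

theorem two_ne : (2 : ZMod 3) ≠ 0 := by decide

theorem mat_Mx (v : I7 → ZMod 3) (hv : qq v = 2) (u : I7 → ZMod 3) :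
    mat (Mx v) *ᵥ u = rf v u := by
  show mat (H49.negG Q7 * H49.reflG Q7 v) *ᵥ u = rf v u
  rw [H49.coe_mul_mulVec, H49.negG_mulVec, H49.reflG_coe, H49.reflectionMatrix_mulVec, polar_eq,
    Q7_eq, hv, inv_two]
  funext j
  simp only [rf, Pi.neg_apply, Pi.sub_apply, Pi.smul_apply, smul_eq_mul]
  have h3 : (2 : ZMod 3) = -1 := by decide
  rw [h3]
  ring

theorem oact_Mx (v : I7 → ZMod 3) (hv : qq v = 2) (i : Fin 351) :
    (oact (Mx v) i).val = idxN (rf v (vec i.val)) % 351 := by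
  show idxN (mat (Mx v) *ᵥ vec i.val) % 351 = _
  rw [mat_Mx v hv]

theorem Mx_sq (v : I7 → ZMod 3) : Mx v * Mx v = 1 := H49.negG_mul_refl_sq Q7 v

theorem Mx_mul (v w : I7 → ZMod 3) : Mx v * Mx w = H49.reflG Q7 v * H49.reflG Q7 w := by
  apply H49.isometry_ext
  intro x
  show mat (H49.negG Q7 * H49.reflG Q7 v * (H49.negG Q7 * H49.reflG Q7 w)) *ᵥ x =
    mat (H49.reflG Q7 v * H49.reflG Q7 w) *ᵥ x
  rw [H49.coe_mul_mulVec, H49.coe_mul_mulVec, H49.coe_mul_mulVec, H49.coe_mul_mulVec,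
    H49.negG_mulVec, H49.negG_mulVec, Matrix.mulVec_neg, neg_neg]

theorem Mx_mul_mem (v w : I7 → ZMod 3) (hv : qq v = 2) (hw : qq w = 2) :
    Mx v * Mx w ∈ commutator G7 := by
  rw [Mx_mul]
  have h1 : Q7 v = 2 := by rw [Q7_eq, hv]
  have h2 : Q7 w = 2 := by rw [Q7_eq, hw]
  exact H49.reflG_mul_reflG_mem_commutator Q7 two_ne v w (by rw [h1]; exact two_ne)
    (by rw [h2]; exact two_ne) ⟨2, by rw [h1, h2]⟩

theorem card_POmega : Nat.card (POmega (ZMod 3) (⇑Q7)) = 4585351680 := by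
  have h := Cfsg.Agent.S0292.result (F := ZMod 3) (q := 3) (ZMod.card 3) (by decide) 3
    (by norm_num)
  rw [← H7.qOdd_coe] at h
  have e : (3 : ℕ) ^ (3 ^ 2) * ∏ i ∈ Finset.range 3, (3 ^ (2 * (i + 1)) - 1) = 2 * 4585351680 := by
    decide
  rw [e] at h
  exact Nat.eq_of_mul_eq_mul_left (by norm_num) h

theorem center_Omega : Subgroup.center (Omega (ZMod 3) (⇑Q7)) = ⊥ :=
  Cfsg.Agent.S0292.center_eq_bot (F := ZMod 3) two_ne 3 (by norm_num)

/-- an odd power of an involution -/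
theorem pow_odd_of_sq {A : Type*} [Monoid A] (t : A) (h : t * t = 1) (k : ℕ) :
    t ^ (2 * k + 1) = t := by
  rw [pow_succ, pow_mul, pow_two, h, one_pow, one_mul]

/-- the criterion: `H` acts faithfully, `M` acts on the same set with its centre in the kernel,
the image of `H` lies in the image of `M`, and the orders fit. -/
theorem iso_of_perm {H M α : Type*} [Group H] [Group M] [Finite H] [Finite M]
    (π : H →* Equiv.Perm α) (σ : M →* Equiv.Perm α)
    (hinj : Function.Injective π)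
    (hle : π.range ≤ σ.range)
    (hcz : Subgroup.center M ≤ σ.ker)
    (N : ℕ) (hN : 0 < N) (hH : Nat.card H = N) (hM : Nat.card (M ⧸ Subgroup.center M) = N) :
    Nonempty (H ≃* M ⧸ Subgroup.center M) := by
  let σb : M ⧸ Subgroup.center M →* Equiv.Perm α := QuotientGroup.lift (Subgroup.center M) σ hcz
  have hr : σ.range ≤ σb.range := by
    rintro x ⟨m, rfl⟩
    exact ⟨(m : M ⧸ Subgroup.center M), rfl⟩
  have h1 : Nat.card π.range = N := by
    rw [← hH]
    exact (Nat.card_congr (MonoidHom.ofInjective hinj).toEquiv).symm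
  have hfin : Finite σb.range := Finite.of_surjective σb.rangeRestrict σb.rangeRestrict_surjective
  have h4 : Nat.card σb.ker * Nat.card σb.range = N := by
    rw [← Subgroup.index_ker, Subgroup.card_mul_index, hM]
  have hkpos : 0 < Nat.card σb.ker := Nat.card_pos
  have h2 : Nat.card σb.range ≤ N := by
    calc Nat.card σb.range = 1 * Nat.card σb.range := (one_mul _).symm
      _ ≤ Nat.card σb.ker * Nat.card σb.range := Nat.mul_le_mul_right _ hkpos
      _ = N := h4
  have heq : π.range = σb.range :=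
    Subgroup.eq_of_le_of_card_ge (hle.trans hr) (by rw [h1]; exact h2)
  have h3 : Nat.card σb.range = N := by rw [← heq]; exact h1
  have hk1 : Nat.card σb.ker = 1 := by
    rw [h3] at h4
    exact Nat.eq_of_mul_eq_mul_right hN (h4.trans (one_mul N).symm)
  have hinjb : Function.Injective σb := by
    rw [← MonoidHom.ker_eq_bot_iff]
    exact Subgroup.card_eq_one.mp hk1
  exact ⟨(MonoidHom.ofInjective hinj).trans
    ((MulEquiv.subgroupCongr heq).trans (MonoidHom.ofInjective hinjb).symm)⟩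

end Cfsg.Agent.H10.O7T
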