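import Cfsg.Agent.H10.O7T.Act
import Cfsg.Agent.H10.O7T.Orth
import Cfsg.Agent.H10.U6T.Main

/-!
# The subgroup `⟨b, …, i⟩` of the presented Fi22 is `Ω₇(3)` (helper10)

The subgroup has index 14080; in the representation on 3510 points it has an orbit of 351 points,
which are matched with the 351 points `⟨v⟩`, `Q v = -1`, of the orthogonal space of dimension 7 over
the field with three elements, the generators acting as minus the reflections.
-/

set_option autoImplicit false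
set_option maxHeartbeats 1600000

namespace Cfsg.Agent.H10.O7T

open Cfsg Cfsg.Agent.H35 Cfsg.Spor Cfsg.Agent.H10 Matrix

/-- the subgroup `⟨b, c, d, e, f, g, h, i⟩` of the presented Fi22 -/
noncomputable abbrev Ho : Subgroup Fi22 :=
  Subgroup.closure {g | ∃ w ∈ t1685_sw, g = uw fi22_gen w}

/-- the point of an index -/
noncomputable def bO (i : Fin 351) : Fin t1687_pd.N :=
  ⟨bON i.val % 3510, Nat.mod_lt _ (by norm_num)⟩

/-- the index of a point -/
def bI (p : Fin t1687_pd.N) : Fin 351 := ⟨bIN p.val % 351, Nat.mod_lt _ (by norm_num)⟩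

theorem B1 (i : ℕ) (hi : i < 351) : bON i < 3510 ∧ bIN (bON i) = i := by
  have h := allR_all _ 351 9 (by norm_num) ol_B1 i hi
  rw [Bool.and_eq_true] at h
  exact ⟨Nat.le_of_ble_eq_true h.1, Nat.eq_of_beq_eq_true h.2⟩

theorem B2 (p : ℕ) (hp : p < 3510) (hc : bIN p < 351) : bON (bIN p) = p := by
  have h := allR_all _ 3510 12 (by norm_num) ol_B2 p hp
  rw [Bool.or_eq_true] at h
  rcases h with h | h
  · rw [Nat.ble_eq_true_of_le hc] at h
    exact absurd h (by decide)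
  · exact Nat.eq_of_beq_eq_true h

theorem bI_bO (i : Fin 351) : bI (bO i) = i := by
  obtain ⟨h1, h3⟩ := B1 i.val i.isLt
  apply Fin.ext
  show bIN (bON i.val % 3510) % 351 = i.val
  rw [Nat.mod_eq_of_lt h1, h3, Nat.mod_eq_of_lt i.isLt]

theorem in_bO (i : Fin 351) : bIN (bO i).val < 351 := by
  obtain ⟨h1, h3⟩ := B1 i.val i.isLt
  show bIN (bON i.val % 3510) < 351
  rw [Nat.mod_eq_of_lt h1, h3]
  exact i.isLt

theorem bO_bI (p : Fin t1687_pd.N) (hc : bIN p.val < 351) : bO (bI p) = p := by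
  have h2 := B2 p.val p.isLt hc
  apply Fin.ext
  show bON (bIN p.val % 351) % 3510 = p.val
  rw [Nat.mod_eq_of_lt hc, h2]
  exact Nat.mod_eq_of_lt p.isLt

theorem o7_main : Nonempty (↥Ho ≃* POmega (ZMod 3) (⇑Q7)) := by
  have hN : 0 < t1687_pd.N := by decide
  obtain ⟨ρ, hw, hst, htr⟩ := tc_core U6T.u6_hyp hN
  obtain ⟨hcard, hsim⟩ := Fi22T.fi22_main
  have hfin : Finite Fi22 := Nat.finite_of_card_ne_zero (by rw [hcard]; norm_num)
  have hidx : Ho.index = 14080 := tc_index Fi22T.top_hyp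
  have hHcard : Nat.card Ho = 4585351680 := by
    have h1 := Subgroup.card_mul_index Ho
    rw [hidx, hcard] at h1
    exact Nat.eq_of_mul_eq_mul_right (by norm_num : 0 < 14080) (h1.trans (by norm_num))
  -- the base
  let q1 : Fin t1687_pd.N := ⟨976, by decide⟩
  let q2 : Fin t1687_pd.N := ⟨821, by decide⟩
  let q3 : Fin t1687_pd.N := ⟨1518, by decide⟩
  let q4 : Fin t1687_pd.N := ⟨974, by decide⟩
  let q5 : Fin t1687_pd.N := ⟨407, by decide⟩
  let q6 : Fin t1687_pd.N := ⟨666, by decide⟩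
  obtain ⟨c1, c2, c3, c4, c5, c6⟩ := ol_base
  let K2 : Subgroup Fi22 := ⊤ ⊓ stabOf ρ q1
  let K3 : Subgroup Fi22 := K2 ⊓ stabOf ρ q2
  let K4 : Subgroup Fi22 := K3 ⊓ stabOf ρ q3
  let K5 : Subgroup Fi22 := K4 ⊓ stabOf ρ q4
  let K6 : Subgroup Fi22 := K5 ⊓ stabOf ρ q5
  let K7 : Subgroup Fi22 := K6 ⊓ stabOf ρ q6
  have hK1 : ∀ w ∈ ol_ws1, uw fi22_gen w ∈ (⊤ : Subgroup Fi22) := fun w _ => Subgroup.mem_top _
  have hK2 : ∀ w ∈ ol_ws2, uw fi22_gen w ∈ K2 := fun w hwm =>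
    ⟨Subgroup.mem_top _, fixOK_mem fi22_gen ρ hw ol_ws2 _ ol_fix2 w hwm q1 (by decide)⟩
  have hK3 : ∀ w ∈ ol_ws3, uw fi22_gen w ∈ K3 := fun w hwm =>
    ⟨⟨Subgroup.mem_top _, fixOK_mem fi22_gen ρ hw ol_ws3 _ ol_fix3 w hwm q1 (by decide)⟩, fixOK_mem fi22_gen ρ hw ol_ws3 _ ol_fix3 w hwm q2 (by decide)⟩
  have hK4 : ∀ w ∈ ol_ws4, uw fi22_gen w ∈ K4 := fun w hwm =>
    ⟨⟨⟨Subgroup.mem_top _, fixOK_mem fi22_gen ρ hw ol_ws4 _ ol_fix4 w hwm q1 (by decide)⟩, fixOK_mem fi22_gen ρ hw ol_ws4 _ ol_fix4 w hwm q2 (by decide)⟩, fixOK_mem fi22_gen ρ hw ol_ws4 _ ol_fix4 w hwm q3 (by decide)⟩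
  have hK5 : ∀ w ∈ ol_ws5, uw fi22_gen w ∈ K5 := fun w hwm =>
    ⟨⟨⟨⟨Subgroup.mem_top _, fixOK_mem fi22_gen ρ hw ol_ws5 _ ol_fix5 w hwm q1 (by decide)⟩, fixOK_mem fi22_gen ρ hw ol_ws5 _ ol_fix5 w hwm q2 (by decide)⟩, fixOK_mem fi22_gen ρ hw ol_ws5 _ ol_fix5 w hwm q3 (by decide)⟩, fixOK_mem fi22_gen ρ hw ol_ws5 _ ol_fix5 w hwm q4 (by decide)⟩
  have hK6 : ∀ w ∈ ol_ws6, uw fi22_gen w ∈ K6 := fun w hwm =>
    ⟨⟨⟨⟨⟨Subgroup.mem_top _, fixOK_mem fi22_gen ρ hw ol_ws6 _ ol_fix6 w hwm q1 (by decide)⟩, fixOK_mem fi22_gen ρ hw ol_ws6 _ ol_fix6 w hwm q2 (by decide)⟩, fixOK_mem fi22_gen ρ hw ol_ws6 _ ol_fix6 w hwm q3 (by decide)⟩, fixOK_mem fi22_gen ρ hw ol_ws6 _ ol_fix6 w hwm q4 (by decide)⟩, fixOK_mem fi22_gen ρ hw ol_ws6 _ ol_fix6 w hwm q5 (by decide)⟩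
  have s1 : 3510 * Nat.card K2 ≤ Nat.card (⊤ : Subgroup Fi22) := by
    have := level_step ρ ⊤ q1
      (Finset.univ.filter (fun p : Fin t1687_pd.N => Nat.ble 1 (fld 16 (ol_lab p.val) 0) = true))
      (fun x hx => by
        rw [Finset.mem_filter, Nat.ble_eq] at hx
        exact lvl_orbit fi22_gen ρ hw ⊤ ol_lab 0 ol_ws1 q1 hK1
          (allR_all _ _ 12 (by decide) ol_lvl1) _ x rfl hx.2)
    rw [card_filter_fin (fun i => Nat.ble 1 (fld 16 (ol_lab i) 0)) t1687_pd.N 12 (by decide)] at this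
    rw [show cntR (fun i => Nat.ble 1 (fld 16 (ol_lab i) 0)) t1687_pd.N 12 0 = 3510 from ol_cnt1]
      at this
    exact this
  have s2 : 2816 * Nat.card K3 ≤ Nat.card K2 := by
    have := level_step ρ K2 q2
      (Finset.univ.filter (fun p : Fin t1687_pd.N => Nat.ble 1 (fld 16 (ol_lab p.val) 2) = true))
      (fun x hx => by
        rw [Finset.mem_filter, Nat.ble_eq] at hx
        exact lvl_orbit fi22_gen ρ hw K2 ol_lab 2 ol_ws2 q2 hK2
          (allR_all _ _ 12 (by decide) ol_lvl2) _ x rfl hx.2)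
    rw [card_filter_fin (fun i => Nat.ble 1 (fld 16 (ol_lab i) 2)) t1687_pd.N 12 (by decide)] at this
    rw [show cntR (fun i => Nat.ble 1 (fld 16 (ol_lab i) 2)) t1687_pd.N 12 0 = 2816 from ol_cnt2]
      at this
    exact this
  have s3 : 567 * Nat.card K4 ≤ Nat.card K3 := by
    have := level_step ρ K3 q3
      (Finset.univ.filter (fun p : Fin t1687_pd.N => Nat.ble 1 (fld 16 (ol_lab p.val) 4) = true))
      (fun x hx => by
        rw [Finset.mem_filter, Nat.ble_eq] at hx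
        exact lvl_orbit fi22_gen ρ hw K3 ol_lab 4 ol_ws3 q3 hK3
          (allR_all _ _ 12 (by decide) ol_lvl3) _ x rfl hx.2)
    rw [card_filter_fin (fun i => Nat.ble 1 (fld 16 (ol_lab i) 4)) t1687_pd.N 12 (by decide)] at this
    rw [show cntR (fun i => Nat.ble 1 (fld 16 (ol_lab i) 4)) t1687_pd.N 12 0 = 567 from ol_cnt3]
      at this
    exact this
  have s4 : 320 * Nat.card K5 ≤ Nat.card K4 := by
    have := level_step ρ K4 q4
      (Finset.univ.filter (fun p : Fin t1687_pd.N => Nat.ble 1 (fld 16 (ol_lab p.val) 6) = true))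
      (fun x hx => by
        rw [Finset.mem_filter, Nat.ble_eq] at hx
        exact lvl_orbit fi22_gen ρ hw K4 ol_lab 6 ol_ws4 q4 hK4
          (allR_all _ _ 12 (by decide) ol_lvl4) _ x rfl hx.2)
    rw [card_filter_fin (fun i => Nat.ble 1 (fld 16 (ol_lab i) 6)) t1687_pd.N 12 (by decide)] at this
    rw [show cntR (fun i => Nat.ble 1 (fld 16 (ol_lab i) 6)) t1687_pd.N 12 0 = 320 from ol_cnt4]
      at this
    exact this
  have s5 : 9 * Nat.card K6 ≤ Nat.card K5 := by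
    have := level_step ρ K5 q5
      (Finset.univ.filter (fun p : Fin t1687_pd.N => Nat.ble 1 (fld 16 (ol_lab p.val) 8) = true))
      (fun x hx => by
        rw [Finset.mem_filter, Nat.ble_eq] at hx
        exact lvl_orbit fi22_gen ρ hw K5 ol_lab 8 ol_ws5 q5 hK5
          (allR_all _ _ 12 (by decide) ol_lvl5) _ x rfl hx.2)
    rw [card_filter_fin (fun i => Nat.ble 1 (fld 16 (ol_lab i) 8)) t1687_pd.N 12 (by decide)] at this
    rw [show cntR (fun i => Nat.ble 1 (fld 16 (ol_lab i) 8)) t1687_pd.N 12 0 = 9 from ol_cnt5]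
      at this
    exact this
  have s6 : 4 * Nat.card K7 ≤ Nat.card K6 := by
    have := level_step ρ K6 q6
      (Finset.univ.filter (fun p : Fin t1687_pd.N => Nat.ble 1 (fld 16 (ol_lab p.val) 10) = true))
      (fun x hx => by
        rw [Finset.mem_filter, Nat.ble_eq] at hx
        exact lvl_orbit fi22_gen ρ hw K6 ol_lab 10 ol_ws6 q6 hK6
          (allR_all _ _ 12 (by decide) ol_lvl6) _ x rfl hx.2)
    rw [card_filter_fin (fun i => Nat.ble 1 (fld 16 (ol_lab i) 10)) t1687_pd.N 12 (by decide)] at this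
    rw [show cntR (fun i => Nat.ble 1 (fld 16 (ol_lab i) 10)) t1687_pd.N 12 0 = 4 from ol_cnt6]
      at this
    exact this
  have hK7 : Nat.card K7 ≤ 1 := by
    have htop : Nat.card (⊤ : Subgroup Fi22) = Nat.card Fi22 := Subgroup.card_top
    omega
  -- the 351-orbit is invariant under the subgroup
  let S : Subgroup Fi22 :=
    { carrier := {g | ∀ p : Fin t1687_pd.N, bIN (ρ g p).val < 351 ↔ bIN p.val < 351}
      one_mem' := fun p => by rw [map_one]; rfl
      mul_mem' := fun {a b} ha hb p => by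
        rw [map_mul, Equiv.Perm.mul_apply]
        exact (ha _).trans (hb p)
      inv_mem' := fun {a} ha p => by
        have h := ha (ρ a⁻¹ p)
        rw [← Equiv.Perm.mul_apply, ← map_mul, mul_inv_cancel, map_one] at h
        exact h.symm }
  have hKS : Ho ≤ S := by
    rw [Subgroup.closure_le]
    rintro _ ⟨w, hwm, rfl⟩
    have h1 : (uw fi22_gen w)⁻¹ ∈ S := by
      intro p
      rw [map_inv, ← hw]
      have ha := allR_all _ 3510 12 (by norm_num) ol_inv p.val p.isLt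
      have hb := allR_all _ 3510 12 (by norm_num) ol_inv2 p.val p.isLt
      rw [List.all_eq_true] at ha hb
      have ha' := ha w hwm
      have hb' := hb w hwm
      rw [Bool.or_eq_true] at ha' hb'
      constructor
      · intro h2
        rcases hb' with h3 | h3
        · rw [Nat.ble_eq_true_of_le h2] at h3
          exact absurd h3 (by decide)
        · exact Nat.le_of_ble_eq_true h3
      · intro h2
        rcases ha' with h3 | h3
        · rw [Nat.ble_eq_true_of_le h2] at h3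
          exact absurd h3 (by decide)
        · exact Nat.le_of_ble_eq_true h3
    have h2 := S.inv_mem h1
    rw [inv_inv] at h2
    exact h2
  have hinvO : ∀ g ∈ Ho, ∀ p : Fin t1687_pd.N, bIN p.val < 351 → bIN (ρ g p).val < 351 :=
    fun g hg p hp => (hKS hg p).mpr hp
  -- the action on the 351 points
  let pact : Ho → Fin 351 → Fin 351 := fun k i => bI (ρ k.1 (bO i))
  have pact_one : ∀ i, pact 1 i = i := fun i => by
    show bI (ρ (1 : Fi22) (bO i)) = i
    rw [map_one]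
    exact bI_bO i
  have pact_mul : ∀ (k k' : Ho) (i : Fin 351), pact (k * k') i = pact k (pact k' i) := by
    intro k k' i
    show bI (ρ (k.1 * k'.1) (bO i)) = bI (ρ k.1 (bO (bI (ρ k'.1 (bO i)))))
    rw [bO_bI _ (hinvO k'.1 k'.2 _ (in_bO i)), map_mul]
    rfl
  let π : Ho →* Equiv.Perm (Fin 351) := U6T.homOfAct pact pact_one pact_mul
  have hπ : ∀ (k : Ho) (i : Fin 351), π k i = bI (ρ k.1 (bO i)) := fun k i => rfl
  -- the inverse of the permutation of a word
  have hpinv : ∀ (k : Ho) (w : List Fi22.Gen), k.1 = uw fi22_gen w → ∀ i : Fin 351,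
      ((π k)⁻¹ i).val = bIN (t1687_pd.walk w (bON i.val)) % 351 := by
    intro k w hk i
    rw [← map_inv, hπ]
    show bIN (ρ (k⁻¹ : Ho).1 (bO i)).val % 351 = _
    have e : (ρ (k⁻¹ : Ho).1 (bO i)).val = t1687_pd.walk w (bON i.val) := by
      rw [Subgroup.coe_inv, hk, map_inv, ← hw]
      show t1687_pd.walk w (bON i.val % 3510) = _
      rw [Nat.mod_eq_of_lt (B1 i.val i.isLt).1]
    rw [e]
  -- the action is faithful
  have hinj : Function.Injective π := by
    rw [← MonoidHom.ker_eq_bot_iff, Subgroup.eq_bot_iff_forall]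
    intro k hk
    have hk1 : π k = 1 := hk
    have hfix : ∀ i : Fin 351, ρ k.1 (bO i) = bO i := by
      intro i
      have h1 : π k i = i := by rw [hk1]; rfl
      have h2 := congrArg bO h1
      rw [hπ, bO_bI _ (hinvO k.1 k.2 _ (in_bO i))] at h2
      exact h2
    have hfixp : ∀ p : Fin t1687_pd.N, bIN p.val < 351 → k.1 ∈ stabOf ρ p := by
      intro p hp
      rw [mem_stabOf, ← bO_bI p hp]
      exact hfix _
    have hmem : k.1 ∈ K7 :=
      ⟨⟨⟨⟨⟨⟨Subgroup.mem_top _, hfixp q1 (Nat.le_of_ble_eq_true c1)⟩,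
        hfixp q2 (Nat.le_of_ble_eq_true c2)⟩, hfixp q3 (Nat.le_of_ble_eq_true c3)⟩,
        hfixp q4 (Nat.le_of_ble_eq_true c4)⟩, hfixp q5 (Nat.le_of_ble_eq_true c5)⟩,
        hfixp q6 (Nat.le_of_ble_eq_true c6)⟩
    have hsub : Subsingleton K7 := Finite.card_le_one_iff_subsingleton.mp hK7
    have h1 : (⟨k.1, hmem⟩ : K7) = 1 := Subsingleton.elim _ _
    have h2 : k.1 = 1 := congrArg (fun x : K7 => x.1) h1
    exact Subtype.ext h2
  -- the generators act as minus the reflections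
  have hgen : ∀ (x : Fi22.Gen) (hm : uw fi22_gen [x] ∈ Ho) (v : I7 → ZMod 3) (hv : qq v = 2),
      allR (fun i => Nat.beq (bIN (t1687_pd.walk [x] (bON i))) (idxN (rf v (vec i)))) 351 9 0
        = true → (π ⟨uw fi22_gen [x], hm⟩)⁻¹ = orep (Mx v) := by
    intro x hm v hv hchk
    apply Equiv.ext
    intro i
    apply Fin.ext
    rw [hpinv ⟨_, hm⟩ [x] rfl i, orep_apply, oact_Mx v hv,
      Nat.eq_of_beq_eq_true (allR_all _ 351 9 (by norm_num) hchk i.val i.isLt)]
  have mem : ∀ w ∈ t1685_sw, uw fi22_gen w ∈ Ho :=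
    fun w hwm => Subgroup.subset_closure ⟨w, hwm, rfl⟩
  have mB : uw fi22_gen [Fi22.Gen.b] ∈ Ho := mem _ (by decide)
  have mC : uw fi22_gen [Fi22.Gen.c] ∈ Ho := mem _ (by decide)
  have mD : uw fi22_gen [Fi22.Gen.d] ∈ Ho := mem _ (by decide)
  have mE : uw fi22_gen [Fi22.Gen.e] ∈ Ho := mem _ (by decide)
  have mF : uw fi22_gen [Fi22.Gen.f] ∈ Ho := mem _ (by decide)
  have mG : uw fi22_gen [Fi22.Gen.g] ∈ Ho := mem _ (by decide)
  have mH : uw fi22_gen [Fi22.Gen.h] ∈ Ho := mem _ (by decide)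
  have mI : uw fi22_gen [Fi22.Gen.i] ∈ Ho := mem _ (by decide)
  let B : Ho := ⟨_, mB⟩
  let C : Ho := ⟨_, mC⟩
  let D : Ho := ⟨_, mD⟩
  let E : Ho := ⟨_, mE⟩
  let F : Ho := ⟨_, mF⟩
  let G : Ho := ⟨_, mG⟩
  let H : Ho := ⟨_, mH⟩
  let I : Ho := ⟨_, mI⟩
  obtain ⟨vqB, vqC, vqD, vqE, vqF, vqG, vqH, vqI⟩ := ol_vq
  have eB : (π B)⁻¹ = orep (Mx vB) := hgen .b mB vB vqB ol_gb
  have eC : (π C)⁻¹ = orep (Mx vC) := hgen .c mC vC vqC ol_gc
  have eD : (π D)⁻¹ = orep (Mx vD) := hgen .d mD vD vqD ol_gd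
  have eE : (π E)⁻¹ = orep (Mx vE) := hgen .e mE vE vqE ol_ge
  have eF : (π F)⁻¹ = orep (Mx vF) := hgen .f mF vF vqF ol_gf
  have eG : (π G)⁻¹ = orep (Mx vG) := hgen .g mG vG vqG ol_gg
  have eH : (π H)⁻¹ = orep (Mx vH) := hgen .h mH vH vqH ol_gh
  have eI : (π I)⁻¹ = orep (Mx vI) := hgen .i mI vI vqI ol_gi
  -- the relation `(cdefghi)^9 = 1` on the 351 points
  let k7 : Ho := C * D * E * F * G * H * I
  have e7 : uw fi22_gen ol_w7 = k7.1 := by
    show _ = uw fi22_gen [.c] * uw fi22_gen [.d] * uw fi22_gen [.e] * uw fi22_gen [.f] *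
      uw fi22_gen [.g] * uw fi22_gen [.h] * uw fi22_gen [.i]
    simp only [ol_w7, uw_cons, uw_nil, mul_one, mul_assoc]
  have hk9 : (k7 ^ 9).1 = uw fi22_gen (ol_w7 ++ ol_w7 ++ ol_w7 ++ ol_w7 ++ ol_w7 ++ ol_w7 ++
      ol_w7 ++ ol_w7 ++ ol_w7) := by
    rw [uw_append, uw_append, uw_append, uw_append, uw_append, uw_append, uw_append, uw_append,
      e7, Subgroup.coe_pow]
    simp only [pow_succ, pow_zero, one_mul]
  have hrel : π (k7 ^ 9) = 1 := by
    have e : (π (k7 ^ 9))⁻¹ = 1 := by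
      apply Equiv.ext
      intro i
      apply Fin.ext
      rw [hpinv (k7 ^ 9) _ hk9 i,
        Nat.eq_of_beq_eq_true (allR_all _ 351 9 (by norm_num) ol_rel i.val i.isLt)]
      exact Nat.mod_eq_of_lt i.isLt
    exact inv_eq_one.mp e
  -- an element of the isometry group acting trivially, in the coset of the generators modulo
  -- the commutator subgroup
  let m : G7 := (Mx vI * Mx vH * Mx vG * Mx vF * Mx vE * Mx vD * Mx vC) ^ 9
  have hm1 : orep m = 1 := by
    show orep ((Mx vI * Mx vH * Mx vG * Mx vF * Mx vE * Mx vD * Mx vC) ^ 9) = 1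
    rw [map_pow, map_mul, map_mul, map_mul, map_mul, map_mul, map_mul, ← eI, ← eH, ← eG, ← eF,
      ← eE, ← eD, ← eC]
    have e1 : (π I)⁻¹ * (π H)⁻¹ * (π G)⁻¹ * (π F)⁻¹ * (π E)⁻¹ * (π D)⁻¹ * (π C)⁻¹ = (π k7)⁻¹ := by
      show _ = (π (C * D * E * F * G * H * I))⁻¹
      rw [map_mul, map_mul, map_mul, map_mul, map_mul, map_mul, _root_.mul_inv_rev,
        _root_.mul_inv_rev, _root_.mul_inv_rev, _root_.mul_inv_rev, _root_.mul_inv_rev,
        _root_.mul_inv_rev]
      simp only [mul_assoc]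
    rw [e1, inv_pow, ← map_pow, hrel, inv_one]
  let t : Abelianization G7 := Abelianization.of (Mx vC)
  have tt : t * t = 1 := by
    show Abelianization.of (Mx vC) * Abelianization.of (Mx vC) = 1
    rw [← map_mul, Mx_sq, map_one]
  have habeq : ∀ v : I7 → ZMod 3, qq v = 2 → Abelianization.of (Mx v) = t := by
    intro v hv
    have h1 := Mx_mul_mem v vC hv vqC
    rw [← Abelianization.ker_of, MonoidHom.mem_ker, map_mul] at h1
    exact mul_right_cancel (h1.trans tt.symm)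
  have habm : Abelianization.of m = t := by
    show Abelianization.of ((Mx vI * Mx vH * Mx vG * Mx vF * Mx vE * Mx vD * Mx vC) ^ 9) = t
    rw [map_pow, map_mul, map_mul, map_mul, map_mul, map_mul, map_mul, habeq vI vqI, habeq vH vqH,
      habeq vG vqG, habeq vF vqF, habeq vE vqE, habeq vD vqD, habeq vC vqC]
    have e3 : t * t * t * t * t * t * t = t ^ (2 * 3 + 1) := by
      simp only [pow_succ, pow_zero, one_mul]
    rw [e3, pow_odd_of_sq t tt 3]
    exact pow_odd_of_sq t tt 4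
  let σ : ↥(Omega (ZMod 3) (⇑Q7)) →* Equiv.Perm (Fin 351) :=
    orep.comp (Omega (ZMod 3) (⇑Q7)).subtype
  have hmemR : ∀ (k : Ho) (v : I7 → ZMod 3), qq v = 2 → (π k)⁻¹ = orep (Mx v) →
      π k ∈ σ.range := by
    intro k v hv e
    have hab : Abelianization.of (m⁻¹ * Mx v) = 1 := by
      rw [map_mul, map_inv, habm, habeq v hv]
      exact inv_mul_cancel t
    have hmem : m⁻¹ * Mx v ∈ Omega (ZMod 3) (⇑Q7) := by
      show m⁻¹ * Mx v ∈ commutator G7
      rw [← Abelianization.ker_of, MonoidHom.mem_ker]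
      exact hab
    have h1 : σ ⟨_, hmem⟩ = (π k)⁻¹ := by
      show orep (m⁻¹ * Mx v) = _
      rw [map_mul, map_inv, hm1, inv_one, one_mul, e]
    have h2 : (π k)⁻¹ ∈ σ.range := ⟨_, h1⟩
    have h3 := σ.range.inv_mem h2
    rw [inv_inv] at h3
    exact h3
  have hle' : ∀ k : Ho, π k ∈ σ.range := by
    rintro ⟨g, hg⟩
    refine Subgroup.closure_induction (p := fun g hg => π ⟨g, hg⟩ ∈ σ.range) ?_ ?_ ?_ ?_ hg
    · rintro _ ⟨w, hwm, rfl⟩
      rw [t1685_sw_def] at hwm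
      simp only [List.mem_cons, List.not_mem_nil, or_false] at hwm
      rcases hwm with rfl | rfl | rfl | rfl | rfl | rfl | rfl | rfl
      · exact hmemR _ vB vqB eB
      · exact hmemR _ vC vqC eC
      · exact hmemR _ vD vqD eD
      · exact hmemR _ vE vqE eE
      · exact hmemR _ vF vqF eF
      · exact hmemR _ vG vqG eG
      · exact hmemR _ vH vqH eH
      · exact hmemR _ vI vqI eI
    · show π 1 ∈ _
      rw [map_one]; exact Subgroup.one_mem _
    · intro x y hx hy ihx ihy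
      show π (⟨x, hx⟩ * ⟨y, hy⟩) ∈ _
      rw [map_mul]; exact Subgroup.mul_mem _ ihx ihy
    · intro x hx ihx
      show π (⟨x, hx⟩⁻¹) ∈ _
      rw [map_inv]; exact Subgroup.inv_mem _ ihx
  have hle : π.range ≤ σ.range := by
    rintro _ ⟨k, rfl⟩
    exact hle' k
  have hcz : Subgroup.center (Omega (ZMod 3) (⇑Q7)) ≤ σ.ker := by
    rw [center_Omega]
    exact bot_le
  exact iso_of_perm π σ hinj hle hcz 4585351680 (by norm_num) hHcard card_POmega

end Cfsg.Agent.H10.O7T
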